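import Mathlib
import Cfsg.Prelude.Def_OddOrderLocal

set_option autoImplicit false

namespace Cfsg.Agent.Lib.Helper49.BG14a

open Subgroup

variable {G : Type*} [Group G]

/-- A nonidentity element of a finite group has a power generating a subgroup of prime order. -/
theorem exists_prime_le_zpowers [Finite G] {k : G} (hk : k ≠ 1) :
    ∃ X : Subgroup G, X ≤ zpowers k ∧ (Nat.card X).Prime := by
  have ho : orderOf k ≠ 1 := by
    intro h
    exact hk (orderOf_eq_one_iff.mp h)
  obtain ⟨p, hp, hpd⟩ := Nat.exists_prime_and_dvd ho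
  refine ⟨zpowers (k ^ (orderOf k / p)), ?_, ?_⟩
  · rw [zpowers_le]
    exact Subgroup.pow_mem _ (mem_zpowers k) _
  · rw [Nat.card_zpowers]
    have hpos : 0 < orderOf k := orderOf_pos k
    rw [orderOf_pow_orderOf_div hpos.ne' hpd]
    exact hp

/-- An element centralizing `k` normalizes every subgroup of `zpowers k`. -/
theorem mem_normalizer_of_centralizes {k u : G} {X : Subgroup G} (hX : X ≤ zpowers k)
    (hu : u ∈ centralizer ({k} : Set G)) : u ∈ normalizer (X : Set G) := by
  have hc : ∀ x ∈ X, u * x * u⁻¹ = x := by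
    intro x hx
    obtain ⟨n, rfl⟩ := mem_zpowers_iff.mp (hX hx)
    have h1 : k * u = u * k := mem_centralizer_iff.mp hu k rfl
    have h2 : Commute u k := h1.symm
    have h3 : Commute u (k ^ n) := h2.zpow_right n
    rw [h3.eq, mul_inv_cancel_right]
  rw [mem_normalizer_iff]
  intro x
  constructor
  · intro hx
    show u * x * u⁻¹ ∈ X
    rw [hc x hx]; exact hx
  · intro hx
    have hx' : u * x * u⁻¹ ∈ X := hx
    have h5 := hc _ hx'
    have : u * x * u⁻¹ = x := by
      have h6 : u * (u * x * u⁻¹) * u⁻¹ = u * x * u⁻¹ := h5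
      have h7 : u * (u * x * u⁻¹) = u * x := by
        have := congrArg (· * u) h6
        simpa using this
      exact mul_left_cancel h7
    show x ∈ X
    rw [← this]; exact hx'

end Cfsg.Agent.Lib.Helper49.BG14a
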